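import Mathlib

/-!
# Twisted translation operators on functions `U → ZMod 3`

For a bilinear form `β` on an elementary abelian `2`-group `U` we realise the twisted group algebra
of `U` over `ZMod 3` through its left and right regular representations on `U → ZMod 3`.
-/

set_option autoImplicit false
set_option linter.unusedSectionVars false
set_option linter.unusedSimpArgs false

namespace Cfsg.Agent.Lib.Helper51.ExtSp

universe u

/-- The sign `(-1)^a` in `ZMod 3`. -/
def sg (a : ZMod 2) : ZMod 3 := if a = 0 then 1 else -1

theorem sg_zero : sg 0 = 1 := by decide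
theorem sg_one : sg 1 = -1 := by decide
theorem sg_add : ∀ a b : ZMod 2, sg (a + b) = sg a * sg b := by decide
theorem sg_mul_self : ∀ a : ZMod 2, sg a * sg a = 1 := by decide
theorem sg_ne_zero : ∀ a : ZMod 2, sg a ≠ 0 := by decide
theorem sg_inj : ∀ a b : ZMod 2, sg a = sg b → a = b := by decide
theorem sg_eq_one : ∀ a : ZMod 2, sg a = 1 ↔ a = 0 := by decide
theorem eq_sg : ∀ c : ZMod 3, c ≠ 0 → ∃ a : ZMod 2, c = sg a := by decide
theorem sg_add_self : ∀ a : ZMod 2, sg (a + a) = 1 := by decide

variable {U : Type u} [AddCommGroup U] [Module (ZMod 2) U]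
variable (β : LinearMap.BilinForm (ZMod 2) U)

theorem add_add_cancel_right' (w u : U) : w + u + u = w := by
  rw [add_assoc, ZModModule.add_self, add_zero]

/-- Left multiplication by the basis element `e_u`. -/
def Lop (u : U) : Module.End (ZMod 3) (U → ZMod 3) where
  toFun f := fun w => sg (β u (w + u)) * f (w + u)
  map_add' f g := by ext w; simp [mul_add]
  map_smul' c f := by ext w; simp [mul_left_comm]

/-- Right multiplication by the basis element `e_u`. -/
def Rop (u : U) : Module.End (ZMod 3) (U → ZMod 3) where
  toFun f := fun w => sg (β (w + u) u) * f (w + u)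
  map_add' f g := by ext w; simp [mul_add]
  map_smul' c f := by ext w; simp [mul_left_comm]

theorem Lop_apply (u : U) (f : U → ZMod 3) (w : U) :
    Lop β u f w = sg (β u (w + u)) * f (w + u) := rfl

theorem Rop_apply (u : U) (f : U → ZMod 3) (w : U) :
    Rop β u f w = sg (β (w + u) u) * f (w + u) := rfl

theorem Lop_mul (u v : U) : Lop β u * Lop β v = sg (β u v) • Lop β (u + v) := by
  apply LinearMap.ext
  intro f
  funext w
  simp only [Module.End.mul_apply, Lop_apply, LinearMap.smul_apply, Pi.smul_apply, smul_eq_mul]
  have e1 : w + u + v = w + (u + v) := by abel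
  rw [e1, ← mul_assoc, ← mul_assoc, ← sg_add, ← sg_add]
  congr 2
  simp only [map_add, LinearMap.add_apply]
  ring_nf
  reduce_mod_char

theorem Lop_zero : Lop β 0 = 1 := by
  apply LinearMap.ext
  intro f
  funext w
  simp [Lop_apply, sg_zero]

theorem Lop_Rop_comm (u v : U) : Lop β u * Rop β v = Rop β v * Lop β u := by
  apply LinearMap.ext
  intro f
  funext w
  simp only [Module.End.mul_apply, Lop_apply, Rop_apply]
  have e1 : w + v + u = w + u + v := by abel
  rw [e1, ← mul_assoc, ← mul_assoc, ← sg_add, ← sg_add]
  congr 2
  simp only [map_add, LinearMap.add_apply]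
  ring_nf

theorem add_eq_iff' (w u v : U) : w + u = v ↔ w = u + v := by
  constructor
  · intro h
    rw [← h, add_comm w u, ← add_assoc, ZModModule.add_self, zero_add]
  · intro h
    rw [h, add_comm u v, add_add_cancel_right']

theorem Lop_Rop_self_apply (u : U) (f : U → ZMod 3) (w : U) :
    Lop β u (Rop β u f) w = sg (β u u) * sg (β u w + β w u) * f w := by
  rw [Lop_apply, Rop_apply, add_add_cancel_right', ← mul_assoc, ← sg_add, ← sg_add]
  congr 2
  simp only [map_add, LinearMap.add_apply]
  ring_nf

section fin

variable [Fintype U] [DecidableEq U]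

theorem single_eq (v : U) (c : ZMod 3) :
    (Pi.single v c : U → ZMod 3) = c • (Pi.single v 1 : U → ZMod 3) := by
  funext w
  by_cases h : w = v
  · subst h; simp
  · simp [Pi.single_apply, h]

theorem Rop_single_zero (v : U) :
    Rop β v (Pi.single 0 1) = (Pi.single v 1 : U → ZMod 3) := by
  funext w
  rw [Rop_apply]
  by_cases h : w = v
  · subst h
    simp [ZModModule.add_self, sg_zero]
  · have h' : w + v ≠ 0 := by
      intro h0
      apply h
      have := (add_eq_iff' w v 0).1 h0
      rwa [add_zero] at this
    simp [Pi.single_apply, h, h']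

theorem Lop_single_zero (v : U) :
    Lop β v (Pi.single 0 1) = (Pi.single v 1 : U → ZMod 3) := by
  funext w
  rw [Lop_apply]
  by_cases h : w = v
  · subst h
    simp [ZModModule.add_self, sg_zero]
  · have h' : w + v ≠ 0 := by
      intro h0
      apply h
      have := (add_eq_iff' w v 0).1 h0
      rwa [add_zero] at this
    simp [Pi.single_apply, h, h']

/-- Orthogonality of the characters `u ↦ (-1)^{B(u,w)}`. -/
theorem sum_sg (hnd : ∀ w : U, (∀ u : U, β u w + β w u = 0) → w = 0) (w : U) :
    ∑ u : U, sg (β u w + β w u) = if w = 0 then (Fintype.card U : ZMod 3) else 0 := by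
  by_cases hw : w = 0
  · subst hw
    simp [sg_zero]
  · rw [if_neg hw]
    have h1 : ∃ t : U, β t w + β w t ≠ 0 := by
      by_contra hcon
      push Not at hcon
      exact hw (hnd w hcon)
    obtain ⟨t, ht⟩ := h1
    have ht1 : β t w + β w t = 1 := by
      revert ht
      generalize β t w + β w t = c
      revert c
      decide
    have h2 : ∑ u : U, sg (β u w + β w u) = - ∑ u : U, sg (β u w + β w u) := by
      have h3 := Equiv.sum_comp (Equiv.addRight t) (fun u => sg (β u w + β w u))
      calc ∑ u : U, sg (β u w + β w u) = ∑ u : U, sg (β (u + t) w + β w (u + t)) := by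
            rw [← h3]; rfl
        _ = ∑ u : U, - sg (β u w + β w u) := by
            apply Finset.sum_congr rfl
            intro u _
            have e : β (u + t) w + β w (u + t) = (β u w + β w u) + (β t w + β w t) := by
              simp only [map_add, LinearMap.add_apply]
              ring
            rw [e, ht1, sg_add, sg_one]
            ring
        _ = - ∑ u : U, sg (β u w + β w u) := Finset.sum_neg_distrib _
    revert h2
    generalize ∑ u : U, sg (β u w + β w u) = S
    revert S
    decide

end fin

section abstract

variable [Fintype U] [DecidableEq U]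
variable {A : Type*} [Ring A] [Algebra (ZMod 3) A]

/-- A family `E : U → A` multiplying like the basis of the twisted group algebra. -/
def Tw (E : U → A) : Prop := (∀ u v, E u * E v = sg (β u v) • E (u + v)) ∧ E 0 = 1

variable {β}

theorem Tw.mul_self {E : U → A} (hE : Tw β E) (u : U) : E u * E u = sg (β u u) • (1 : A) := by
  rw [hE.1, ZModModule.add_self, hE.2]

theorem Tw.mul_inv {E : U → A} (hE : Tw β E) (u : U) : E u * (sg (β u u) • E u) = 1 := by
  rw [mul_smul_comm, hE.mul_self, smul_smul, sg_mul_self, one_smul]

theorem Tw.inv_mul {E : U → A} (hE : Tw β E) (u : U) : (sg (β u u) • E u) * E u = 1 := by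
  rw [smul_mul_assoc, hE.mul_self, smul_smul, sg_mul_self, one_smul]

/-- The averaging operator. -/
def avg (β : LinearMap.BilinForm (ZMod 2) U) (E P : U → A) (x : A) : A :=
  ∑ u, P u * x * (sg (β u u) • E u)

theorem avg_intertwine {E P : U → A} (hE : Tw β E) (hP : Tw β P) (x : A) (v : U) :
    P v * avg β E P x = avg β E P x * E v := by
  unfold avg
  rw [Finset.mul_sum, Finset.sum_mul]
  rw [← Equiv.sum_comp (Equiv.addRight v) (fun u => P u * x * (sg (β u u) • E u) * E v)]
  apply Finset.sum_congr rfl
  intro u _
  simp only [Equiv.coe_addRight]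
  have e1 : P v * (P u * x * (sg (β u u) • E u)) =
      (sg (β v u) * sg (β u u)) • (P (u + v) * x * E u) := by
    rw [← mul_assoc, ← mul_assoc, hP.1 v u, add_comm v u, mul_smul_comm, smul_mul_assoc,
      smul_mul_assoc, smul_smul, mul_comm (sg (β u u))]
  have e2 : P (u + v) * x * (sg (β (u + v) (u + v)) • E (u + v)) * E v =
      (sg (β (u + v) (u + v)) * sg (β (u + v) v)) • (P (u + v) * x * E u) := by
    rw [mul_assoc (P (u + v) * x), smul_mul_assoc, hE.1 (u + v) v, add_add_cancel_right',
      smul_smul, mul_smul_comm]
  rw [e1, e2]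
  congr 1
  rw [← sg_add, ← sg_add]
  congr 1
  simp only [map_add, LinearMap.add_apply]
  ring_nf
  reduce_mod_char

end abstract

end Cfsg.Agent.Lib.Helper51.ExtSp
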