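import Mathlib
import Cfsg.Agent.Lib.Helper51.ExtSpOps

/-!
# Averaging, invertibility and the kernel lemma for the twisted translation operators
-/

set_option autoImplicit false
set_option linter.unusedSectionVars false
set_option linter.unusedSimpArgs false

namespace Cfsg.Agent.Lib.Helper51.ExtSp

universe u

variable {U : Type u} [AddCommGroup U] [Module (ZMod 2) U]
variable [Fintype U] [DecidableEq U]

section abstract

variable {β : LinearMap.BilinForm (ZMod 2) U}
variable {A : Type*} [Ring A] [Algebra (ZMod 3) A]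

theorem Tw.conj {E : U → A} (hE : Tw β E) (t u : U) :
    E t * E u * (sg (β t t) • E t) = sg (β t u + β u t) • E u := by
  rw [hE.1 t u, smul_mul_assoc, mul_smul_comm, hE.1 (t + u) t, smul_smul, smul_smul]
  have e : t + u + t = u := by rw [add_comm t u, add_add_cancel_right']
  rw [e, ← sg_add, ← sg_add]
  congr 2
  simp only [map_add, LinearMap.add_apply]
  ring_nf
  reduce_mod_char

theorem sum_avg (hnd : ∀ w : U, (∀ u : U, β u w + β w u = 0) → w = 0) {E P : U → A}
    (hE : Tw β E) (hP : Tw β P) :
    ∑ t, avg β E P (E t) * (sg (β t t) • E t) = (Fintype.card U : ZMod 3) • (1 : A) := by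
  unfold avg
  simp only [Finset.sum_mul]
  rw [Finset.sum_comm]
  have h1 : ∀ u : U, ∑ t, P u * E t * (sg (β u u) • E u) * (sg (β t t) • E t) =
      (sg (β u u) * ∑ t, sg (β t u + β u t)) • (P u * E u) := by
    intro u
    rw [Finset.mul_sum, Finset.sum_smul]
    apply Finset.sum_congr rfl
    intro t _
    have e : P u * E t * (sg (β u u) • E u) * (sg (β t t) • E t) =
        sg (β u u) • (P u * (E t * E u * (sg (β t t) • E t))) := by
      simp only [mul_assoc, mul_smul_comm, smul_mul_assoc]
      rw [smul_comm]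
    rw [e, hE.conj, mul_smul_comm, smul_smul]
  simp only [h1, sum_sg β hnd]
  rw [Finset.sum_eq_single 0]
  · simp [hE.2, hP.2, sg_zero]
  · intro u _ hu
    simp [hu]
  · intro h
    exact absurd (Finset.mem_univ _) h

end abstract

section concrete

variable (β : LinearMap.BilinForm (ZMod 2) U)

theorem Lop_tw : Tw β (Lop β) := ⟨Lop_mul β, Lop_zero β⟩

/-- Operators commuting with all right translations are determined by their value at `δ₀`. -/
theorem ext_of_comm_Rop {g h : Module.End (ZMod 3) (U → ZMod 3)}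
    (hg : ∀ v, g * Rop β v = Rop β v * g) (hh : ∀ v, h * Rop β v = Rop β v * h)
    (h0 : g (Pi.single 0 1) = h (Pi.single 0 1)) : g = h := by
  apply LinearMap.pi_ext
  intro v c
  rw [single_eq v c, map_smul, map_smul, ← Rop_single_zero β v]
  have e1 : g (Rop β v (Pi.single 0 1)) = Rop β v (g (Pi.single 0 1)) := by
    have := congrArg (fun T => T (Pi.single 0 1)) (hg v)
    simpa only [Module.End.mul_apply] using this
  have e2 : h (Rop β v (Pi.single 0 1)) = Rop β v (h (Pi.single 0 1)) := by
    have := congrArg (fun T => T (Pi.single 0 1)) (hh v)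
    simpa only [Module.End.mul_apply] using this
  rw [e1, e2, h0]

theorem Lop_Rop_single (u : U) :
    Lop β u (Rop β u (Pi.single 0 1)) = sg (β u u) • (Pi.single 0 1 : U → ZMod 3) := by
  funext w'
  rw [Lop_Rop_self_apply]
  by_cases hw' : w' = 0
  · subst hw'; simp [sg_zero]
  · simp [Pi.single_apply, hw']

theorem isUnit_of_intertwine (hnd : ∀ w : U, (∀ u : U, β u w + β w u = 0) → w = 0)
    (hcard : (Fintype.card U : ZMod 3) ≠ 0)
    {a : Module.End (ZMod 3) (U → ZMod 3)} (ha : a ≠ 0)
    (hR : ∀ v, a * Rop β v = Rop β v * a)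
    (hL : ∀ v, ∃ c : Module.End (ZMod 3) (U → ZMod 3), a * Lop β v = c * a) : IsUnit a := by
  rw [LinearMap.isUnit_iff_ker_eq_bot, Submodule.eq_bot_iff]
  intro f hf
  rw [LinearMap.mem_ker] at hf
  by_contra hf0
  have : ∃ w₀, f w₀ ≠ 0 := by
    by_contra hcon
    push Not at hcon
    exact hf0 (funext hcon)
  obtain ⟨w₀, hw₀⟩ := this
  apply ha
  have key : a (Pi.single 0 1) = 0 := by
    set f' := Lop β w₀ f with hf'
    have hf'0 : a f' = 0 := by
      obtain ⟨c, hc⟩ := hL w₀
      have := congrArg (fun T => T f) hc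
      simp only [Module.End.mul_apply] at this
      rw [hf', this, hf, map_zero]
    have hsum : ∑ u, sg (β u u) • Lop β u (Rop β u f') =
        ((Fintype.card U : ZMod 3) * f' 0) • (Pi.single 0 1 : U → ZMod 3) := by
      funext w
      rw [Finset.sum_apply]
      simp only [Pi.smul_apply, Lop_Rop_self_apply, smul_eq_mul]
      have : ∀ u : U, sg (β u u) * (sg (β u u) * sg (β u w + β w u) * f' w) =
          sg (β u w + β w u) * f' w := by
        intro u
        rw [← mul_assoc, ← mul_assoc, sg_mul_self, one_mul]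
      simp only [this]
      rw [← Finset.sum_mul, sum_sg β hnd]
      by_cases hw : w = 0
      · subst hw; simp
      · simp [hw, Pi.single_apply]
    have h2 : a (∑ u, sg (β u u) • Lop β u (Rop β u f')) = 0 := by
      rw [map_sum]
      apply Finset.sum_eq_zero
      intro u _
      rw [map_smul]
      obtain ⟨c, hc⟩ := hL u
      have e1 := congrArg (fun T => T (Rop β u f')) hc
      have e2 := congrArg (fun T => T f') (hR u)
      simp only [Module.End.mul_apply] at e1 e2
      rw [e1, e2, hf'0, map_zero, map_zero, smul_zero]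
    rw [hsum, map_smul] at h2
    have hne : (Fintype.card U : ZMod 3) * f' 0 ≠ 0 := by
      apply mul_ne_zero hcard
      rw [hf', Lop_apply, zero_add]
      exact mul_ne_zero (sg_ne_zero _) hw₀
    exact (smul_eq_zero.1 h2).resolve_left hne
  apply ext_of_comm_Rop β hR (fun v => by simp)
  rw [key]
  simp

theorem eq_sg_smul_Lop (hnd : ∀ w : U, (∀ u : U, β u w + β w u = 0) → w = 0)
    {g : Module.End (ZMod 3) (U → ZMod 3)} (hg : g (Pi.single 0 1) ≠ 0)
    (hR : ∀ v, g * Rop β v = Rop β v * g)
    (hL : ∀ u, ∃ ε : ZMod 2, g * Lop β u = sg ε • (Lop β u * g)) :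
    ∃ (w : U) (ε : ZMod 2), g = sg ε • Lop β w := by
  set a := g (Pi.single 0 1) with ha
  have hpt : ∀ u w, a w ≠ 0 → ∀ ε, g * Lop β u = sg ε • (Lop β u * g) →
      ε = β u w + β w u := by
    intro u w haw ε hε
    have e1 := congrArg (fun T => T (Rop β u (Pi.single 0 1))) hε
    have e2 := congrArg (fun T => T (Pi.single 0 1)) (hR u)
    simp only [Module.End.mul_apply, LinearMap.smul_apply] at e1 e2
    rw [e2, Lop_Rop_single, map_smul, ← ha] at e1
    have e4 := congrFun e1 w
    rw [Pi.smul_apply, Pi.smul_apply, Lop_Rop_self_apply, smul_eq_mul, smul_eq_mul] at e4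
    have e5 : sg (β u u) * a w * 1 = sg (β u u) * a w * (sg ε * sg (β u w + β w u)) := by
      rw [mul_one]
      calc sg (β u u) * a w = sg ε * (sg (β u u) * sg (β u w + β w u) * a w) := e4
        _ = _ := by ring
    have e6 := mul_left_cancel₀ (mul_ne_zero (sg_ne_zero _) haw) e5
    rw [← sg_add] at e6
    have e7 := (sg_eq_one _).1 e6.symm
    have aux : ∀ x y : ZMod 2, x + y = 0 → x = y := by decide
    exact aux _ _ e7
  obtain ⟨w₁, hw₁⟩ : ∃ w₁, a w₁ ≠ 0 := by
    by_contra hcon
    push Not at hcon
    exact hg (funext hcon)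
  have hsupp : ∀ w, a w ≠ 0 → w = w₁ := by
    intro w hw
    have h1 : ∀ u, β u (w + w₁) + β (w + w₁) u = 0 := by
      intro u
      obtain ⟨ε, hε⟩ := hL u
      have e1 := hpt u w hw ε hε
      have e2 := hpt u w₁ hw₁ ε hε
      have e3 : β u w + β w u = β u w₁ + β w₁ u := by rw [← e1, ← e2]
      simp only [map_add, LinearMap.add_apply]
      have aux : ∀ a b c d : ZMod 2, a + b = c + d → a + c + (b + d) = 0 := by decide
      exact aux _ _ _ _ e3
    have h2 := hnd _ h1
    have h3 := (add_eq_iff' w w₁ 0).1 h2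
    rwa [add_zero] at h3
  obtain ⟨ε, hε⟩ := eq_sg (a w₁) hw₁
  refine ⟨w₁, ε, ?_⟩
  apply ext_of_comm_Rop β hR
  · intro v
    rw [smul_mul_assoc, mul_smul_comm, Lop_Rop_comm]
  · rw [LinearMap.smul_apply, Lop_single_zero, ← ha]
    funext w
    by_cases hw : w = w₁
    · subst hw
      simp [hε]
    · have : a w = 0 := by
        by_contra h
        exact hw (hsupp w h)
      simp [Pi.single_apply, hw, this]

end concrete

end Cfsg.Agent.Lib.Helper51.ExtSp
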