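import Mathlib
import Cfsg.Agent.Lib.Helper51.ExtSpAvg

/-!
# Lifting isometries to operators normalising the twisted translations
-/

set_option autoImplicit false
set_option linter.unusedSectionVars false
set_option linter.unusedSimpArgs false

namespace Cfsg.Agent.Lib.Helper51.ExtSp

universe u

variable {U : Type u} [AddCommGroup U] [Module (ZMod 2) U]
variable [Fintype U] [DecidableEq U]

/-- Every alternating form over `𝔽₂` is the polarisation of a quadratic function. -/
theorem exists_quad (γ : LinearMap.BilinForm (ZMod 2) U) (hγ : ∀ u, γ u u = 0) :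
    ∃ s : U → ZMod 2, s 0 = 0 ∧ ∀ u v, s (u + v) = s u + s v + γ u v := by
  classical
  have : Module.Finite (ZMod 2) U := Module.Finite.of_finite
  let bm := Module.finBasis (ZMod 2) U
  let M : Matrix (Fin (Module.finrank (ZMod 2) U)) (Fin (Module.finrank (ZMod 2) U)) (ZMod 2) :=
    fun i j => if i < j then γ (bm i) (bm j) else 0
  let δ : LinearMap.BilinForm (ZMod 2) U := Matrix.toBilin bm M
  have hδ : ∀ i j, δ (bm i) (bm j) = M i j := by
    intro i j
    rw [← LinearMap.BilinForm.toMatrix_apply bm δ, LinearMap.BilinForm.toMatrix_toBilin]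
  have hsym : ∀ u v, γ u v = γ v u := by
    intro u v
    have h1 := hγ (u + v)
    simp only [map_add, LinearMap.add_apply, hγ, zero_add, add_zero] at h1
    have aux : ∀ x y : ZMod 2, x + y = 0 → y = x := by decide
    exact aux _ _ h1
  have h : δ + LinearMap.flip δ = γ := by
    apply LinearMap.BilinForm.ext_basis bm
    intro i j
    simp only [LinearMap.add_apply, LinearMap.flip_apply, hδ]
    rcases lt_trichotomy i j with h | h | h
    · simp [M, h, not_lt_of_gt h]
    · subst h
      simp [M, hγ]
    · simp only [M, h, not_lt_of_gt h, if_true, if_false, zero_add]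
      exact hsym _ _
  refine ⟨fun u => δ u u, by simp, ?_⟩
  intro u v
  have h2 := congrArg (fun B : LinearMap.BilinForm (ZMod 2) U => B u v) h
  simp only [LinearMap.add_apply, LinearMap.flip_apply] at h2
  simp only [map_add, LinearMap.add_apply]
  rw [← h2]
  ring

section lift

variable (β : LinearMap.BilinForm (ZMod 2) U)

theorem exists_lift (hnd : ∀ w : U, (∀ u : U, β u w + β w u = 0) → w = 0)
    (hcard : (Fintype.card U : ZMod 3) ≠ 0) (φ : U →ₗ[ZMod 2] U)
    (hφ : ∀ u, β (φ u) (φ u) = β u u) :
    ∃ g : (Module.End (ZMod 3) (U → ZMod 3))ˣ,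
      (∀ v, (g : Module.End (ZMod 3) (U → ZMod 3)) * Rop β v = Rop β v * g) ∧
      ∀ u, ∃ ε : ZMod 2,
        (g : Module.End (ZMod 3) (U → ZMod 3)) * Lop β u = sg ε • (Lop β (φ u) * g) := by
  obtain ⟨s, hs0, hs⟩ := exists_quad (β.compl₁₂ φ φ + β) (by
    intro u
    simp only [LinearMap.add_apply, LinearMap.compl₁₂_apply, hφ]
    exact CharTwo.add_self_eq_zero _)
  simp only [LinearMap.add_apply, LinearMap.compl₁₂_apply] at hs
  set P : U → Module.End (ZMod 3) (U → ZMod 3) := fun u => sg (s u) • Lop β (φ u) with hP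
  have hTw : Tw β P := by
    refine ⟨?_, ?_⟩
    · intro u v
      simp only [hP]
      rw [smul_mul_assoc, mul_smul_comm, Lop_mul, smul_smul, smul_smul, smul_smul, map_add,
        ← sg_add, ← sg_add, ← sg_add, hs]
      congr 2
      ring_nf
      reduce_mod_char
    · simp only [hP]
      rw [hs0, map_zero, Lop_zero, sg_zero, one_smul]
  have hex : ∃ t, avg β (Lop β) P (Lop β t) ≠ 0 := by
    by_contra hcon
    push Not at hcon
    have h1 := sum_avg hnd (Lop_tw β) hTw
    simp only [hcon, zero_mul, Finset.sum_const_zero] at h1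
    have h2 := congrArg (fun T : Module.End (ZMod 3) (U → ZMod 3) =>
      T (Pi.single 0 1) 0) h1
    simp at h2
    exact hcard h2.symm
  obtain ⟨t, ht⟩ := hex
  have hR : ∀ v, avg β (Lop β) P (Lop β t) * Rop β v = Rop β v * avg β (Lop β) P (Lop β t) := by
    intro v
    show Commute _ _
    unfold avg
    apply Commute.sum_left
    intro u _
    apply Commute.mul_left
    · apply Commute.mul_left
      · simp only [hP]
        apply Commute.smul_left
        exact Lop_Rop_comm β _ _
      · exact Lop_Rop_comm β _ _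
    · apply Commute.smul_left
      exact Lop_Rop_comm β _ _
  have hL : ∀ v, ∃ c : Module.End (ZMod 3) (U → ZMod 3),
      avg β (Lop β) P (Lop β t) * Lop β v = c * avg β (Lop β) P (Lop β t) :=
    fun v => ⟨P v, (avg_intertwine (Lop_tw β) hTw _ v).symm⟩
  obtain ⟨g, hg⟩ := isUnit_of_intertwine β hnd hcard ht hR hL
  refine ⟨g, ?_, ?_⟩
  · intro v
    rw [hg]
    exact hR v
  · intro u
    refine ⟨s u, ?_⟩
    rw [hg, ← avg_intertwine (Lop_tw β) hTw _ u]
    simp only [hP]
    rw [smul_mul_assoc]

end lift

end Cfsg.Agent.Lib.Helper51.ExtSp
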