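import Mathlib
import Cfsg.Agent.Lib.Helper51.ExtSpLift

/-!
# The group of operators normalising the twisted translations
-/

set_option autoImplicit false
set_option linter.unusedSectionVars false
set_option linter.unusedSimpArgs false

namespace Cfsg.Agent.Lib.Helper51.ExtSp

universe u v

variable {U : Type u} [AddCommGroup U] [Module (ZMod 2) U]
variable [Fintype U] [DecidableEq U]
variable (β : LinearMap.BilinForm (ZMod 2) U)
variable {K : Type v} [Group K] (ρ : Representation (ZMod 2) K U)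

/-- `g` induces `k` on the twisted translations. -/
def Rel (g : (Module.End (ZMod 3) (U → ZMod 3))ˣ) (k : K) : Prop :=
  ∀ u, ∃ ε : ZMod 2,
    (g : Module.End (ZMod 3) (U → ZMod 3)) * Lop β u = sg ε • (Lop β (ρ k u) * g)

theorem Rel_one : Rel β ρ 1 1 := by
  intro u
  refine ⟨0, ?_⟩
  simp [sg_zero]

variable {β ρ}

theorem Rel.mul {g h : (Module.End (ZMod 3) (U → ZMod 3))ˣ} {k l : K}
    (hg : Rel β ρ g k) (hh : Rel β ρ h l) : Rel β ρ (g * h) (k * l) := by
  intro u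
  obtain ⟨ε, hε⟩ := hh u
  obtain ⟨ε', hε'⟩ := hg (ρ l u)
  refine ⟨ε + ε', ?_⟩
  rw [Units.val_mul, mul_assoc, hε, mul_smul_comm, ← mul_assoc, hε', smul_mul_assoc, smul_smul,
    ← sg_add, map_mul, Module.End.mul_apply, mul_assoc]

theorem Rel.inv {g : (Module.End (ZMod 3) (U → ZMod 3))ˣ} {k : K}
    (hg : Rel β ρ g k) : Rel β ρ g⁻¹ k⁻¹ := by
  intro u
  obtain ⟨ε, hε⟩ := hg (ρ k⁻¹ u)
  have e0 : ρ k (ρ k⁻¹ u) = u := by
    rw [← Module.End.mul_apply, ← map_mul, mul_inv_cancel, map_one, Module.End.one_apply]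
  rw [e0] at hε
  refine ⟨ε, ?_⟩
  have e1 : Lop β u * (g : Module.End (ZMod 3) (U → ZMod 3)) =
      sg ε • ((g : Module.End (ZMod 3) (U → ZMod 3)) * Lop β (ρ k⁻¹ u)) := by
    rw [hε, smul_smul, sg_mul_self, one_smul]
  calc (↑g⁻¹ : Module.End (ZMod 3) (U → ZMod 3)) * Lop β u
      = ↑g⁻¹ * (Lop β u * g) * ↑g⁻¹ := by
        rw [mul_assoc, mul_assoc, Units.mul_inv, mul_one]
    _ = sg ε • (Lop β (ρ k⁻¹ u) * ↑g⁻¹) := by
        rw [e1, mul_smul_comm, smul_mul_assoc, ← mul_assoc, Units.inv_mul, one_mul]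

/-- `sg ε • Lop w` determines `w` and `ε`. -/
theorem sg_smul_Lop_inj {w w' : U} {ε ε' : ZMod 2}
    (h : sg ε • Lop β w = sg ε' • Lop β w') : w = w' ∧ ε = ε' := by
  have h2 := congrArg (fun T : Module.End (ZMod 3) (U → ZMod 3) => T (Pi.single 0 1) w) h
  simp only [LinearMap.smul_apply, Lop_single_zero, Pi.smul_apply, Pi.single_eq_same,
    smul_eq_mul, mul_one] at h2
  have hw : w = w' := by
    by_contra hne
    rw [Pi.single_apply, if_neg hne, mul_zero] at h2
    exact sg_ne_zero _ h2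
  subst hw
  rw [Pi.single_eq_same, mul_one] at h2
  exact ⟨rfl, sg_inj _ _ h2⟩

theorem Rel.unique (hρ : Function.Injective ρ) {g : (Module.End (ZMod 3) (U → ZMod 3))ˣ}
    {k l : K} (hk : Rel β ρ g k) (hl : Rel β ρ g l) : k = l := by
  apply hρ
  apply LinearMap.ext
  intro u
  obtain ⟨ε, hε⟩ := hk u
  obtain ⟨ε', hε'⟩ := hl u
  have h1 : sg ε • Lop β (ρ k u) = sg ε' • Lop β (ρ l u) := by
    have h0 : sg ε • (Lop β (ρ k u) * (g : Module.End (ZMod 3) (U → ZMod 3))) =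
        sg ε' • (Lop β (ρ l u) * g) := by rw [← hε, ← hε']
    have h2 := congrArg (fun T => T * (↑g⁻¹ : Module.End (ZMod 3) (U → ZMod 3))) h0
    simpa [smul_mul_assoc, mul_assoc] using h2
  exact (sg_smul_Lop_inj h1).1

variable (β ρ)

/-- The group `R`: units commuting with right translations and normalising (up to sign) the
left translations through the action of `K`. -/
def Rsub : Subgroup (Module.End (ZMod 3) (U → ZMod 3))ˣ where
  carrier := {g | (∀ v, (g : Module.End (ZMod 3) (U → ZMod 3)) * Rop β v = Rop β v * g) ∧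
    ∃ k, Rel β ρ g k}
  mul_mem' := by
    rintro g h ⟨hg, k, hk⟩ ⟨hh, l, hl⟩
    refine ⟨?_, k * l, hk.mul hl⟩
    intro v
    rw [Units.val_mul, mul_assoc, hh, ← mul_assoc, hg, mul_assoc]
  one_mem' := ⟨fun v => by simp, 1, Rel_one β ρ⟩
  inv_mem' := by
    rintro g ⟨hg, k, hk⟩
    refine ⟨?_, k⁻¹, hk.inv⟩
    intro v
    calc (↑g⁻¹ : Module.End (ZMod 3) (U → ZMod 3)) * Rop β v
        = ↑g⁻¹ * (Rop β v * g) * ↑g⁻¹ := by
          rw [mul_assoc, mul_assoc, Units.mul_inv, mul_one]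
      _ = Rop β v * ↑g⁻¹ := by
          rw [← hg, ← mul_assoc, Units.inv_mul, one_mul]

theorem mem_Rsub {g : (Module.End (ZMod 3) (U → ZMod 3))ˣ} :
    g ∈ Rsub β ρ ↔ (∀ v, (g : Module.End (ZMod 3) (U → ZMod 3)) * Rop β v = Rop β v * g) ∧
    ∃ k, Rel β ρ g k := Iff.rfl

/-- The projection `R → K`. -/
noncomputable def proj (hρ : Function.Injective ρ) : ↥(Rsub β ρ) →* K where
  toFun g := Classical.choose g.2.2
  map_one' := Rel.unique hρ (Classical.choose_spec (1 : ↥(Rsub β ρ)).2.2) (Rel_one β ρ)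
  map_mul' g h := Rel.unique hρ (Classical.choose_spec (g * h).2.2)
    ((Classical.choose_spec g.2.2).mul (Classical.choose_spec h.2.2))

theorem proj_spec (hρ : Function.Injective ρ) (g : ↥(Rsub β ρ)) :
    Rel β ρ (g : (Module.End (ZMod 3) (U → ZMod 3))ˣ) (proj β ρ hρ g) :=
  Classical.choose_spec g.2.2

theorem proj_eq (hρ : Function.Injective ρ) (g : ↥(Rsub β ρ)) {k : K}
    (h : Rel β ρ (g : (Module.End (ZMod 3) (U → ZMod 3))ˣ) k) : proj β ρ hρ g = k :=
  Rel.unique hρ (proj_spec β ρ hρ g) h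

theorem proj_surjective (hnd : ∀ w : U, (∀ u : U, β u w + β w u = 0) → w = 0)
    (hcard : (Fintype.card U : ZMod 3) ≠ 0) (hρ : Function.Injective ρ)
    (hq : ∀ (k : K) (u : U), β (ρ k u) (ρ k u) = β u u) :
    Function.Surjective (proj β ρ hρ) := by
  intro k
  obtain ⟨g, hg1, hg2⟩ := exists_lift β hnd hcard (ρ k) (hq k)
  exact ⟨⟨g, hg1, k, hg2⟩, proj_eq β ρ hρ _ hg2⟩

/-- The unit `± L_w`. -/
def LU (w : U) (ε : ZMod 2) : (Module.End (ZMod 3) (U → ZMod 3))ˣ where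
  val := sg ε • Lop β w
  inv := sg (ε + β w w) • Lop β w
  val_inv := by
    rw [smul_mul_assoc, mul_smul_comm, Lop_mul, ZModModule.add_self, Lop_zero, smul_smul,
      smul_smul, ← sg_add, ← sg_add]
    have e : ε + (ε + β w w) + β w w = 0 := by
      ring_nf
      reduce_mod_char
    rw [e, sg_zero, one_smul]
  inv_val := by
    rw [smul_mul_assoc, mul_smul_comm, Lop_mul, ZModModule.add_self, Lop_zero, smul_smul,
      smul_smul, ← sg_add, ← sg_add]
    have e : ε + β w w + ε + β w w = 0 := by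
      ring_nf
      reduce_mod_char
    rw [e, sg_zero, one_smul]

theorem LU_val (w : U) (ε : ZMod 2) :
    ((LU β w ε : (Module.End (ZMod 3) (U → ZMod 3))ˣ) : Module.End (ZMod 3) (U → ZMod 3)) =
      sg ε • Lop β w := rfl

theorem LU_rel (w : U) (ε : ZMod 2) : Rel β ρ (LU β w ε) 1 := by
  intro u
  refine ⟨β w u + β u w, ?_⟩
  rw [LU_val, map_one, Module.End.one_apply, smul_mul_assoc, mul_smul_comm, Lop_mul, Lop_mul,
    smul_smul, smul_smul, smul_smul, add_comm u w, ← sg_add, ← sg_add, ← sg_add]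
  congr 2
  ring_nf
  reduce_mod_char

theorem LU_mem (w : U) (ε : ZMod 2) : LU β w ε ∈ Rsub β ρ := by
  refine ⟨?_, 1, LU_rel β ρ w ε⟩
  intro v
  rw [LU_val, smul_mul_assoc, mul_smul_comm, Lop_Rop_comm]

end Cfsg.Agent.Lib.Helper51.ExtSp
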