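import Mathlib
import Cfsg.Agent.Lib.Helper51.ExtSpGrp
import Cfsg.Agent.Lib.Helper2.ESLExtra

/-!
# The extraspecial kernel and the main existence theorem
-/

set_option autoImplicit false
set_option linter.unusedSectionVars false
set_option linter.unusedSimpArgs false

namespace Cfsg.Agent.Lib.Helper51.ExtSp

universe u v

variable {U : Type u} [AddCommGroup U] [Module (ZMod 2) U]
variable [Fintype U] [DecidableEq U]
variable (β : LinearMap.BilinForm (ZMod 2) U)
variable {K : Type v} [Group K] (ρ : Representation (ZMod 2) K U)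
variable (hρ : Function.Injective ρ)

/-- The operator underlying an element of the kernel. -/
def cv (a : ↥(proj β ρ hρ).ker) : Module.End (ZMod 3) (U → ZMod 3) :=
  (((a : ↥(Rsub β ρ)) : (Module.End (ZMod 3) (U → ZMod 3))ˣ) :
    Module.End (ZMod 3) (U → ZMod 3))

theorem cv_mul (a b : ↥(proj β ρ hρ).ker) :
    cv β ρ hρ (a * b) = cv β ρ hρ a * cv β ρ hρ b := rfl

theorem cv_one : cv β ρ hρ 1 = 1 := rfl

theorem cv_injective {a b : ↥(proj β ρ hρ).ker} (h : cv β ρ hρ a = cv β ρ hρ b) : a = b :=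
  Subtype.ext (Subtype.ext (Units.ext h))

theorem ker_form (hnd : ∀ w : U, (∀ u : U, β u w + β w u = 0) → w = 0)
    (a : ↥(proj β ρ hρ).ker) :
    ∃ (w : U) (ε : ZMod 2), cv β ρ hρ a = sg ε • Lop β w := by
  have h1 : proj β ρ hρ (a : ↥(Rsub β ρ)) = 1 := a.2
  have h2 := proj_spec β ρ hρ (a : ↥(Rsub β ρ))
  rw [h1] at h2
  apply eq_sg_smul_Lop β hnd
  · intro h0
    have h3 := congrArg (fun f => (↑(a.1.1)⁻¹ : Module.End (ZMod 3) (U → ZMod 3)) f) h0
    simp only [cv, map_zero] at h3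
    rw [← Module.End.mul_apply, Units.inv_mul, Module.End.one_apply] at h3
    have h4 := congrFun h3 0
    simp at h4
  · exact a.1.2.1
  · intro u
    obtain ⟨ε, hε⟩ := h2 u
    rw [map_one, Module.End.one_apply] at hε
    exact ⟨ε, hε⟩

/-- The vector attached to an element of the kernel. -/
noncomputable def wt (hnd : ∀ w : U, (∀ u : U, β u w + β w u = 0) → w = 0)
    (a : ↥(proj β ρ hρ).ker) : U :=
  Classical.choose (ker_form β ρ hρ hnd a)

/-- The sign attached to an element of the kernel. -/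
noncomputable def sn (hnd : ∀ w : U, (∀ u : U, β u w + β w u = 0) → w = 0)
    (a : ↥(proj β ρ hρ).ker) : ZMod 2 :=
  Classical.choose (Classical.choose_spec (ker_form β ρ hρ hnd a))

theorem cv_eq (hnd : ∀ w : U, (∀ u : U, β u w + β w u = 0) → w = 0)
    (a : ↥(proj β ρ hρ).ker) :
    cv β ρ hρ a = sg (sn β ρ hρ hnd a) • Lop β (wt β ρ hρ hnd a) :=
  Classical.choose_spec (Classical.choose_spec (ker_form β ρ hρ hnd a))

theorem wt_eq (hnd : ∀ w : U, (∀ u : U, β u w + β w u = 0) → w = 0)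
    {a : ↥(proj β ρ hρ).ker} {w : U} {ε : ZMod 2} (h : cv β ρ hρ a = sg ε • Lop β w) :
    wt β ρ hρ hnd a = w :=
  (sg_smul_Lop_inj ((cv_eq β ρ hρ hnd a).symm.trans h)).1

theorem sn_eq (hnd : ∀ w : U, (∀ u : U, β u w + β w u = 0) → w = 0)
    {a : ↥(proj β ρ hρ).ker} {w : U} {ε : ZMod 2} (h : cv β ρ hρ a = sg ε • Lop β w) :
    sn β ρ hρ hnd a = ε :=
  (sg_smul_Lop_inj ((cv_eq β ρ hρ hnd a).symm.trans h)).2

/-- The element `± L_w` of the kernel. -/
def LQ (w : U) (ε : ZMod 2) : ↥(proj β ρ hρ).ker :=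
  ⟨⟨LU β w ε, LU_mem β ρ w ε⟩, MonoidHom.mem_ker.2 (proj_eq β ρ hρ _ (LU_rel β ρ w ε))⟩

theorem cv_LQ (w : U) (ε : ZMod 2) : cv β ρ hρ (LQ β ρ hρ w ε) = sg ε • Lop β w := rfl

/-- The kernel is in bijection with `U × 𝔽₂`. -/
noncomputable def kerEquiv (hnd : ∀ w : U, (∀ u : U, β u w + β w u = 0) → w = 0) :
    ↥(proj β ρ hρ).ker ≃ U × ZMod 2 where
  toFun a := (wt β ρ hρ hnd a, sn β ρ hρ hnd a)
  invFun p := LQ β ρ hρ p.1 p.2
  left_inv a := cv_injective β ρ hρ (by rw [cv_LQ, ← cv_eq])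
  right_inv p := Prod.ext (wt_eq β ρ hρ hnd (cv_LQ β ρ hρ p.1 p.2))
    (sn_eq β ρ hρ hnd (cv_LQ β ρ hρ p.1 p.2))

/-- The homomorphism `Q → U`. -/
noncomputable def chi (hnd : ∀ w : U, (∀ u : U, β u w + β w u = 0) → w = 0) :
    ↥(proj β ρ hρ).ker →* Multiplicative U where
  toFun a := Multiplicative.ofAdd (wt β ρ hρ hnd a)
  map_one' := by
    rw [wt_eq β ρ hρ hnd (w := 0) (ε := 0) (by rw [cv_one, Lop_zero, sg_zero, one_smul])]
    rfl
  map_mul' a b := by
    rw [← ofAdd_add]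
    congr 1
    apply wt_eq β ρ hρ hnd
      (ε := sn β ρ hρ hnd a + sn β ρ hρ hnd b + β (wt β ρ hρ hnd a) (wt β ρ hρ hnd b))
    rw [cv_mul, cv_eq β ρ hρ hnd a, cv_eq β ρ hρ hnd b, smul_mul_assoc, mul_smul_comm, Lop_mul,
      smul_smul, smul_smul, ← sg_add, ← sg_add]

theorem chi_apply (hnd : ∀ w : U, (∀ u : U, β u w + β w u = 0) → w = 0)
    (a : ↥(proj β ρ hρ).ker) :
    chi β ρ hρ hnd a = Multiplicative.ofAdd (wt β ρ hρ hnd a) := rfl

theorem main_beta (hρ : Function.Injective ρ)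
    (hnd : ∀ w : U, (∀ u : U, β u w + β w u = 0) → w = 0)
    (hcard : (Fintype.card U : ZMod 3) ≠ 0) (hU : Nontrivial U)
    (hq : ∀ (k : K) (u : U), β (ρ k u) (ρ k u) = β u u) :
    ∃ (R : Type u) (_ : Group R) (_ : Finite R) (Q : Subgroup R) (hN : Q.Normal)
      (e : R ⧸ Q ≃* K) (χ : ↥Q →* Multiplicative U),
      Cfsg.IsExtraspecial 2 ↥Q ∧ Nat.card ↥Q = 2 * Nat.card U ∧ Function.Surjective χ ∧
      χ.ker = Subgroup.center ↥Q ∧
      (∀ (r : R) (a : ↥Q), χ ⟨r * a * r⁻¹, hN.conj_mem (a : R) a.2 r⟩ =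
        Multiplicative.ofAdd (ρ (e (r : R ⧸ Q)) (Multiplicative.toAdd (χ a)))) ∧
      ∀ a : ↥Q, a * a = 1 ↔
        β (Multiplicative.toAdd (χ a)) (Multiplicative.toAdd (χ a)) = 0 := by
  have hfinE : Finite (Module.End (ZMod 3) (U → ZMod 3)) := DFunLike.finite _
  have hsurj := proj_surjective β ρ hnd hcard hρ hq
  have hcardQ : Nat.card ↥(proj β ρ hρ).ker = 2 * Nat.card U := by
    rw [Nat.card_congr (kerEquiv β ρ hρ hnd), Nat.card_prod, Nat.card_zmod, mul_comm]
  have hchisurj : Function.Surjective (chi β ρ hρ hnd) := by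
    intro w
    refine ⟨LQ β ρ hρ (Multiplicative.toAdd w) 0, ?_⟩
    rw [chi_apply, wt_eq β ρ hρ hnd (cv_LQ β ρ hρ _ 0)]
    rfl
  have hker : (chi β ρ hρ hnd).ker = Subgroup.center ↥(proj β ρ hρ).ker := by
    ext a
    rw [MonoidHom.mem_ker, chi_apply, Subgroup.mem_center_iff]
    constructor
    · intro h g
      have hw : wt β ρ hρ hnd a = 0 := by simpa using h
      apply cv_injective
      rw [cv_mul, cv_mul, cv_eq β ρ hρ hnd a, hw, Lop_zero, mul_smul_comm, smul_mul_assoc,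
        mul_one, one_mul]
    · intro h
      have hw : wt β ρ hρ hnd a = 0 := by
        apply hnd
        intro u
        have h1 := congrArg (cv β ρ hρ) (h (LQ β ρ hρ u 0))
        rw [cv_mul, cv_mul, cv_LQ, cv_eq β ρ hρ hnd a, sg_zero, one_smul, mul_smul_comm,
          smul_mul_assoc, Lop_mul, Lop_mul, smul_smul, smul_smul, add_comm u, ← sg_add,
          ← sg_add] at h1
        have h2 := (sg_smul_Lop_inj h1).2
        have aux : ∀ x y z : ZMod 2, x + y = x + z → y + z = 0 := by decide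
        exact aux _ _ _ h2
      rw [hw]
      rfl
  have hcardker : Nat.card ↥(chi β ρ hρ hnd).ker = 2 := by
    have h1 := Subgroup.card_mul_index (chi β ρ hρ hnd).ker
    rw [Subgroup.index_ker, MonoidHom.range_eq_top.2 hchisurj, Subgroup.card_top, hcardQ,
      Nat.card_congr Multiplicative.toAdd] at h1
    have hpos : 0 < Nat.card U := Nat.card_pos
    exact Nat.eq_of_mul_eq_mul_right hpos h1
  have hsq : ∀ a : ↥(proj β ρ hρ).ker, a * a = 1 ↔
      β (wt β ρ hρ hnd a) (wt β ρ hρ hnd a) = 0 := by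
    intro a
    have h1 : cv β ρ hρ (a * a) =
        sg (β (wt β ρ hρ hnd a) (wt β ρ hρ hnd a)) • Lop β 0 := by
      rw [cv_mul, cv_eq β ρ hρ hnd a, smul_mul_assoc, mul_smul_comm, Lop_mul,
        ZModModule.add_self, smul_smul, smul_smul, sg_mul_self, one_mul]
    constructor
    · intro h
      have h0 : cv β ρ hρ (a * a) = sg 0 • Lop β 0 := by
        rw [h, cv_one, Lop_zero, sg_zero, one_smul]
      exact (sg_smul_Lop_inj (h1.symm.trans h0)).2
    · intro h
      apply cv_injective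
      rw [h1, h, sg_zero, one_smul, Lop_zero, cv_one]
  have hconj : ∀ (r : ↥(Rsub β ρ)) (a : ↥(proj β ρ hρ).ker)
      (h : r * a * r⁻¹ ∈ (proj β ρ hρ).ker),
      wt β ρ hρ hnd ⟨r * a * r⁻¹, h⟩ = ρ (proj β ρ hρ r) (wt β ρ hρ hnd a) := by
    intro r a h
    obtain ⟨ε, hε⟩ := proj_spec β ρ hρ r (wt β ρ hρ hnd a)
    apply wt_eq β ρ hρ hnd (ε := sn β ρ hρ hnd a + ε)
    show ((r : (Module.End (ZMod 3) (U → ZMod 3))ˣ) : Module.End (ZMod 3) (U → ZMod 3)) *
      cv β ρ hρ a * ((r⁻¹ : ↥(Rsub β ρ)) : (Module.End (ZMod 3) (U → ZMod 3))ˣ) = _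
    rw [cv_eq β ρ hρ hnd a, mul_smul_comm, hε, smul_smul, smul_mul_assoc, mul_assoc,
      Subgroup.coe_inv, Units.mul_inv, mul_one, ← sg_add]
  refine ⟨↥(Rsub β ρ), inferInstance, inferInstance, (proj β ρ hρ).ker, inferInstance,
    QuotientGroup.quotientKerEquivOfSurjective (proj β ρ hρ) hsurj, chi β ρ hρ hnd,
    ?_, hcardQ, hchisurj, hker, ?_, ?_⟩
  · have : Fact (Nat.Prime 2) := ⟨Nat.prime_two⟩
    apply Cfsg.Agent.Lib.Helper2.ESL.isExtraspecial_of
    · rw [← hker]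
      exact hcardker
    · intro a b
      rw [← hker, MonoidHom.mem_ker, map_commutatorElement, commutatorElement_eq_one_iff_mul_comm]
      exact mul_comm _ _
    · obtain ⟨w, hw⟩ := exists_ne (0 : U)
      have hex : ∃ u, β u w + β w u ≠ 0 := by
        by_contra hcon
        push Not at hcon
        exact hw (hnd w hcon)
      obtain ⟨u, hu⟩ := hex
      refine ⟨LQ β ρ hρ w 0, LQ β ρ hρ u 0, ?_⟩
      rw [Ne, commutatorElement_eq_one_iff_mul_comm]
      intro h
      have h1 := congrArg (cv β ρ hρ) h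
      rw [cv_mul, cv_mul, cv_LQ, cv_LQ, sg_zero, one_smul, one_smul, Lop_mul, Lop_mul,
        add_comm u w] at h1
      have h2 := (sg_smul_Lop_inj h1).2
      apply hu
      rw [h2]
      exact CharTwo.add_self_eq_zero _
  · intro r a
    rw [chi_apply, chi_apply]
    exact congrArg _ (hconj r a _)
  · intro a
    rw [chi_apply]
    exact hsq a

end Cfsg.Agent.Lib.Helper51.ExtSp
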