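import Mathlib
import Cfsg.Agent.Lib.Helper51.ExtSpMain

/-!
# The extraspecial extension realising an orthogonal module
-/

set_option autoImplicit false
set_option linter.unusedSectionVars false
set_option linter.unusedSimpArgs false

namespace Cfsg.Agent.Lib.Helper51.ExtSp

theorem ext19 {K : Type*} [Group K] {U : Type*} [AddCommGroup U] [Module (ZMod 2) U]
    [Module.Finite (ZMod 2) U] (n : ℕ) (hn1 : 1 ≤ n) (hn : Module.finrank (ZMod 2) U = 2 * n)
    (ρ : Representation (ZMod 2) K U) (hρ : Function.Injective ρ)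
    (q : QuadraticForm (ZMod 2) U) (hq : ∀ (k : K) (u : U), q (ρ k u) = q u)
    (hnd : (QuadraticMap.polarBilin q).Nondegenerate) :
    ∃ (R : Type) (_ : Group R) (_ : Finite R) (Q : Subgroup R) (hN : Q.Normal)
      (e : R ⧸ Q ≃* K) (χ : ↥Q →* Multiplicative U),
      Cfsg.IsExtraspecial 2 ↥Q ∧ Nat.card ↥Q = 2 ^ (2 * n + 1) ∧ Function.Surjective χ ∧
      χ.ker = Subgroup.center ↥Q ∧
      (∀ (r : R) (a : ↥Q), χ ⟨r * a * r⁻¹, hN.conj_mem (a : R) a.2 r⟩ =
        Multiplicative.ofAdd (ρ (e (r : R ⧸ Q)) (Multiplicative.toAdd (χ a)))) ∧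
      ∀ a : ↥Q, a * a = 1 ↔ q (Multiplicative.toAdd (χ a)) = 0 := by
  classical
  let E : U ≃ₗ[ZMod 2] (Fin (2 * n) → ZMod 2) :=
    (Module.finBasisOfFinrankEq (ZMod 2) U hn).equivFun
  let ρ₀ : Representation (ZMod 2) K (Fin (2 * n) → ZMod 2) :=
    { toFun := fun k => E.toLinearMap ∘ₗ ρ k ∘ₗ E.symm.toLinearMap
      map_one' := by
        ext x
        simp
      map_mul' := by
        intro k l
        ext x
        simp }
  have hρ₀apply : ∀ k x, ρ₀ k x = E (ρ k (E.symm x)) := fun k x => rfl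
  let q₀ : QuadraticForm (ZMod 2) (Fin (2 * n) → ZMod 2) := q.comp E.symm.toLinearMap
  have hq₀apply : ∀ x, q₀ x = q (E.symm x) := fun x => rfl
  let β₀ : LinearMap.BilinForm (ZMod 2) (Fin (2 * n) → ZMod 2) :=
    q₀.toBilin (Pi.basisFun (ZMod 2) (Fin (2 * n)))
  have hβ₀ : ∀ x, β₀ x x = q₀ x := by
    intro x
    rw [← LinearMap.BilinMap.toQuadraticMap_apply, QuadraticMap.toQuadraticMap_toBilin]
  have hpol : ∀ x y, β₀ x y + β₀ y x = q₀ (x + y) - q₀ x - q₀ y := by
    intro x y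
    rw [← hβ₀, ← hβ₀, ← hβ₀]
    simp only [map_add, LinearMap.add_apply]
    ring
  have hρ₀ : Function.Injective ρ₀ := by
    intro k l hkl
    apply hρ
    apply LinearMap.ext
    intro u
    have h1 := congrArg (fun T : Module.End (ZMod 2) (Fin (2 * n) → ZMod 2) => T (E u)) hkl
    simp only [hρ₀apply, LinearEquiv.symm_apply_apply] at h1
    exact E.injective h1
  have hnd₀ : ∀ w : Fin (2 * n) → ZMod 2, (∀ u, β₀ u w + β₀ w u = 0) → w = 0 := by
    intro w hw
    have h1 : E.symm w = 0 := by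
      apply hnd.1
      intro y
      rw [QuadraticMap.polarBilin_apply_apply, QuadraticMap.polar]
      have h2 := hpol (E y) w
      rw [hw (E y), hq₀apply, hq₀apply, hq₀apply, map_add, LinearEquiv.symm_apply_apply] at h2
      rw [add_comm (E.symm w) y]
      have aux : ∀ a b c : ZMod 2, 0 = a - b - c → a - c - b = 0 := by decide
      exact aux _ _ _ h2
    simpa using h1
  have hcard : (Fintype.card (Fin (2 * n) → ZMod 2) : ZMod 3) ≠ 0 := by
    simp only [Fintype.card_pi, ZMod.card, Finset.prod_const, Finset.card_univ, Fintype.card_fin,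
      Nat.cast_pow, Nat.cast_ofNat]
    exact pow_ne_zero _ (by decide)
  have hne : Nonempty (Fin (2 * n)) := ⟨⟨0, by omega⟩⟩
  have hnt : Nontrivial (Fin (2 * n) → ZMod 2) := inferInstance
  have hq₀ : ∀ (k : K) (u : Fin (2 * n) → ZMod 2), β₀ (ρ₀ k u) (ρ₀ k u) = β₀ u u := by
    intro k u
    rw [hβ₀, hβ₀, hq₀apply, hq₀apply, hρ₀apply, LinearEquiv.symm_apply_apply, hq]
  obtain ⟨R, iG, iF, Q, hN, e, χ₀, h1, h2, h3, h4, h5, h6⟩ :=
    main_beta β₀ ρ₀ hρ₀ hnd₀ hcard hnt hq₀
  let F : Multiplicative (Fin (2 * n) → ZMod 2) →* Multiplicative U :=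
    AddMonoidHom.toMultiplicative (E.symm : (Fin (2 * n) → ZMod 2) →+ U)
  have hFapply : ∀ x, F x = Multiplicative.ofAdd (E.symm (Multiplicative.toAdd x)) :=
    fun x => rfl
  have hFinj : Function.Injective F := by
    intro x y hxy
    rw [hFapply, hFapply] at hxy
    exact Multiplicative.toAdd.injective (E.symm.injective (Multiplicative.ofAdd.injective hxy))
  refine ⟨R, iG, iF, Q, hN, e, F.comp χ₀, h1, ?_, ?_, ?_, ?_, ?_⟩
  · rw [h2, Nat.card_eq_fintype_card]
    simp only [Fintype.card_pi, ZMod.card, Finset.prod_const, Finset.card_univ, Fintype.card_fin]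
    rw [pow_succ, mul_comm]
  · intro y
    obtain ⟨a, ha⟩ := h3 (Multiplicative.ofAdd (E (Multiplicative.toAdd y)))
    refine ⟨a, ?_⟩
    rw [MonoidHom.comp_apply, ha, hFapply]
    simp
  · rw [← h4]
    ext a
    rw [MonoidHom.mem_ker, MonoidHom.mem_ker, MonoidHom.comp_apply]
    exact map_eq_one_iff F hFinj
  · intro r a
    rw [MonoidHom.comp_apply, MonoidHom.comp_apply, h5 r a, hFapply, hFapply, hρ₀apply]
    simp
  · intro a
    rw [h6 a, hβ₀, hq₀apply, MonoidHom.comp_apply, hFapply]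
    simp

end Cfsg.Agent.Lib.Helper51.ExtSp
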